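import Cfsg.Agent.Lib.SL2.Dickson.Index

/-!
Actions of `SL₂(8)` of degree at most 27: an element of order 7 fixes at least two ninths of the points.
-/

set_option autoImplicit false
set_option linter.unusedSectionVars false

namespace CfsgLib.MinIndexSymp

open MulAction CfsgLib.SL2.Dickson
open scoped MatrixGroups

variable {E : Type*} [Field E] [Finite E]

local notation "SL₂E" => Matrix.SpecialLinearGroup (Fin 2) E

/-- The orders of the proper subgroups that matter. -/
lemma subgroup_sl_eight (hE : Nat.card E = 8) (h2 : (2 : E) = 0) {S : Subgroup SL₂E} (hS : S ≠ ⊤) :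
    Nat.card S ≤ 56 ∧ Nat.card S ≠ 21 ∧ Nat.card S ≠ 24 ∧ Nat.card S ≠ 36 := by
  have hc : Subgroup.center SL₂E = ⊥ := SL2.center_eq_bot_of_two h2
  have hZ : Subgroup.center SL₂E ≤ S := by rw [hc]; exact bot_le
  have hz : zG S = ⊥ := by rw [zG, hc, Subgroup.bot_subgroupOf]
  have hidx : (zG S).index = Nat.card S := by rw [hz, Subgroup.index_bot]
  have htop : Nat.card S ≠ 504 := fun h => hS (Subgroup.eq_top_of_card_eq S (by
    rw [h, SL2.card_SL, hE]; norm_num))
  rcases classification hZ with h | h | ⟨hi, -⟩ | ⟨-, ⟨e⟩⟩ | ⟨hi, -⟩ | ⟨R, k, hR, hi, hk⟩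
  · obtain ⟨u, hu⟩ := h
    have hd : Nat.card S ∣ 56 := by
      have h := Subgroup.card_dvd_of_injective
        (((MulAut.conj u).toMonoidHom.comp S.subtype).codRestrict (SL2.borel E) fun g => hu g g.2)
        (fun a b hab => Subtype.ext ((MulAut.conj u).injective (congrArg Subtype.val hab)))
      rwa [SL2.card_borel, hE] at h
    have := Nat.le_of_dvd (by norm_num) hd
    refine ⟨this, ?_, ?_, ?_⟩ <;> intro h <;> rw [h] at hd <;> norm_num at hd
  · obtain ⟨k, hk, hiso⟩ := torus_case hZ h
    rw [hE] at hk
    have hk9 : k ≤ 9 := by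
      norm_num at hk
      rcases hk with hk | hk <;> [exact Nat.le_of_dvd (by norm_num) hk;
        exact (Nat.le_of_dvd (by norm_num) hk).trans (by norm_num)]
    have : Nat.card S ≤ 18 := by
      rcases hiso with ⟨-, hcard⟩ | ⟨⟨f⟩⟩
      · rw [← Subgroup.index_eq_card, hidx] at hcard; omega
      · have := Nat.card_congr f.toEquiv
        rw [← Subgroup.index_eq_card, hidx, DihedralGroup.nat_card] at this
        omega
    omega
  · omega
  · -- there are no elements of order four
    exfalso
    obtain ⟨g, hg⟩ := QuotientGroup.mk'_surjective (zG S) (e.symm (finRotate 4))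
    have hord : orderOf (g : SL₂E) = 4 := by
      have hinj : Function.Injective (QuotientGroup.mk' (zG S)) := by
        rw [← MonoidHom.ker_eq_bot_iff, QuotientGroup.ker_mk', hz]
      rw [Subgroup.orderOf_coe, ← orderOf_injective _ hinj g, hg,
        MulEquiv.orderOf_eq, orderOf_eq_prime_pow (p := 2) (n := 1)
          (by decide) (by decide)]
      norm_num
    set x : Matrix (Fin 2) (Fin 2) E := ((g : SL₂E) : Matrix (Fin 2) (Fin 2) E) with hx
    have h4 : x ^ 4 = 1 := by
      rw [hx, ← Matrix.SpecialLinearGroup.coe_pow, ← hord, pow_orderOf_eq_one,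
        Matrix.SpecialLinearGroup.coe_one]
    have hdet : x 0 0 * x 1 1 - x 0 1 * x 1 0 = 1 := by
      rw [← Matrix.det_fin_two]; exact (g : SL₂E).2
    set t := x 0 0 + x 1 1
    have hsq : x ^ 2 = t • x + 1 := by
      ext i j
      fin_cases i <;> fin_cases j <;>
        simp [pow_two, Matrix.mul_apply, Fin.sum_univ_two, t] <;> first
          | ring1
          | linear_combination (-1 : E) * hdet - h2
    have hne : x ^ 2 ≠ 1 := fun h => by
      have h' : (g : SL₂E) ^ 2 = 1 := Subtype.ext (by rwa [Matrix.SpecialLinearGroup.coe_pow])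
      have := orderOf_dvd_of_pow_eq_one h'
      rw [hord] at this; norm_num at this
    refine hne ?_
    have h5 : t ^ 2 • x ^ 2 = 0 := by
      have h6 : x ^ 4 = t ^ 2 • x ^ 2 + 1 := by
        have h0 : t • x + t • x = 0 := by rw [← add_smul, ← two_mul, h2, zero_mul, zero_smul]
        calc x ^ 4 = (t • x + 1) * (t • x + 1) := by rw [← hsq, ← pow_add]
          _ = t ^ 2 • x ^ 2 + (t • x + t • x) + 1 := by
            simp only [add_mul, mul_add, smul_mul_assoc, mul_smul_comm, smul_add, smul_smul, one_mul, mul_one, pow_two]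
            abel
          _ = _ := by rw [h0, add_zero]
      rw [h4] at h6
      exact add_eq_right.1 h6.symm
    rcases eq_or_ne t 0 with ht | ht
    · rw [hsq, ht, zero_smul, zero_add]
    · exfalso
      have h7 : x ^ 4 = 0 := by
        rw [show x ^ 4 = x ^ 2 * x ^ 2 by rw [← pow_add],
          (smul_eq_zero.1 h5).resolve_left (pow_ne_zero _ ht), mul_zero]
      rw [h4] at h7
      exact one_ne_zero h7
  · exfalso
    have h := Subgroup.card_subgroup_dvd_card S
    rw [← hidx, hi, SL2.card_SL, hE] at h
    norm_num at h
  · exfalso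
    have hpow : Nat.card R ^ Module.finrank R E = 8 :=
      (Module.natCard_eq_pow_finrank (K := R) (V := E)).symm.trans hE
    have hle : Nat.card R ≤ 8 := by
      rw [← hpow]; exact Nat.le_self_pow Module.finrank_pos.ne' _
    have hr : Nat.card R = 8 := by
      obtain ⟨d, hd, hdeq⟩ := (Nat.dvd_prime_pow Nat.prime_two).1
        (show Nat.card R ∣ 2 ^ 3 by rw [← (show _ = 2 ^ 3 from hpow)]; exact dvd_pow_self _ Module.finrank_pos.ne')
      interval_cases d <;> try omega
      exfalso
      rw [show Nat.card R = 4 by omega] at hpow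
      have : Module.finrank R E < 2 := by
        by_contra hlt
        have := Nat.pow_le_pow_right (show 1 ≤ 4 by norm_num) (not_lt.1 hlt)
        omega
      interval_cases (Module.finrank R E) <;> omega
    rw [hidx, hr] at hi
    rw [hr] at hk
    rcases hk with ⟨rfl, -⟩ | ⟨hk, -⟩
    · exact htop hi
    · omega

/-- An element of order 7 fixes at least two ninths of the points. -/
theorem two_mul_card_le {X : Type*} [MulAction SL₂E X] [Finite X] (hE : Nat.card E = 8) (h2 : (2 : E) = 0)
    {g : SL₂E} (hg : orderOf g = 7) (hX : Nat.card X ≤ 27) :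
    2 * Nat.card X ≤ 9 * Nat.card {x : X // g • x = x} := by
  classical
  have := Fintype.ofFinite X
  have : Fact (Nat.Prime 7) := ⟨by norm_num⟩
  set q : X → orbitRel.Quotient SL₂E X := Quotient.mk''
  have key : ∀ o, 2 * (Finset.univ.filter fun x => q x = o).card
      ≤ 9 * ((Finset.univ.filter fun x => g • x = x).filter fun x => q x = o).card := by
    intro o
    induction o using Quotient.inductionOn' with
    | h x =>
      have horb : ∀ y, q y = Quotient.mk'' x ↔ y ∈ orbit SL₂E x := fun y => Quotient.eq''
      have hn : (Finset.univ.filter fun y => q y = Quotient.mk'' x).card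
          = (stabilizer SL₂E x).index := by
        rw [index_stabilizer, ← Nat.card_coe_set_eq, ← Fintype.card_subtype, ← Nat.card_eq_fintype_card]
        exact Nat.card_congr (Equiv.subtypeEquivRight horb)
      have hn27 : (stabilizer SL₂E x).index ≤ 27 := by
        rw [← hn]
        exact (Finset.card_le_univ _).trans (le_of_eq_of_le (Nat.card_eq_fintype_card).symm hX)
      have hmul := (stabilizer SL₂E x).card_mul_index
      rw [SL2.card_SL, hE] at hmul
      have hF : (stabilizer SL₂E x).index % 7
          ≤ ((Finset.univ.filter fun y => g • y = y).filter fun y => q y = Quotient.mk'' x).card := by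
        have hp : IsPGroup 7 (Subgroup.zpowers g) :=
          IsPGroup.of_card (n := 1) (by rw [Nat.card_zpowers, hg, pow_one])
        have hmod := hp.card_modEq_card_fixedPoints (orbit SL₂E x)
        rw [index_stabilizer, ← Nat.card_coe_set_eq, hmod]
        refine (Nat.mod_le _ _).trans ?_
        rw [Finset.filter_filter, ← Fintype.card_subtype, ← Nat.card_eq_fintype_card]
        refine Nat.card_le_card_of_injective (fun y => ⟨((y : orbit SL₂E x) : X),
          congrArg Subtype.val (y.2 ⟨g, Subgroup.mem_zpowers g⟩), (horb _).2 y.1.2⟩)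
          fun a b hab => Subtype.ext (Subtype.ext (congrArg (fun z => z.1) hab))
      rw [hn]
      by_cases hS : stabilizer SL₂E x = ⊤
      · rw [hS, Subgroup.index_top] at hF ⊢
        omega
      · obtain ⟨h56, h21, h24, h36⟩ := subgroup_sl_eight hE h2 hS
        have : 9 ≤ (stabilizer SL₂E x).index := by
          by_contra hlt
          have := Nat.mul_le_mul h56 (Nat.le_of_lt_succ (not_le.1 hlt))
          omega
        interval_cases h : (stabilizer SL₂E x).index <;> omega
  rw [Nat.card_eq_fintype_card, Nat.card_eq_fintype_card, Fintype.card_subtype, ← Finset.card_univ,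
    Finset.card_eq_sum_card_fiberwise (f := q) (t := Finset.univ.image q)
      (fun x _ => Finset.mem_image_of_mem _ (Finset.mem_univ _)),
    Finset.card_eq_sum_card_fiberwise (f := q) (t := Finset.univ.image q)
      (fun x _ => Finset.mem_image_of_mem _ (Finset.mem_univ _)), Finset.mul_sum, Finset.mul_sum]
  exact Finset.sum_le_sum fun o _ => key o

end CfsgLib.MinIndexSymp
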