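import Cfsg.Agent.Lib.MinIndex.Symp.SixTorus
import Cfsg.Agent.Lib.MinIndex.Symp.SmallSL

/-!
`Sp₆(2)` has no proper subgroup of index below 28.
-/

set_option autoImplicit false
set_option linter.unusedSectionVars false

namespace CfsgLib.MinIndexSymp

open MulAction

/-- With Sylow 7-subgroups of order 7, two elements of order 7 generate conjugate subgroups. -/
lemma exists_conj_mem_zpowers {K : Type*} [Group K] [Finite K] (h49 : ¬ 7 ^ 2 ∣ Nat.card K) {a b : K}
    (ha : orderOf a = 7) (hb : orderOf b = 7) : ∃ h : K, h * b * h⁻¹ ∈ Subgroup.zpowers a := by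
  have : Fact (Nat.Prime 7) := ⟨by norm_num⟩
  have hp : ∀ c : K, orderOf c = 7 → IsPGroup 7 (Subgroup.zpowers c) := fun c hc =>
    IsPGroup.of_card (n := 1) (by rw [Nat.card_zpowers, hc, pow_one])
  obtain ⟨P, hP⟩ := (hp a ha).exists_le_sylow
  obtain ⟨Q, hQ⟩ := (hp b hb).exists_le_sylow
  have hPa : (P : Subgroup K) = Subgroup.zpowers a := by
    refine (Subgroup.eq_of_le_of_card_ge hP ?_).symm
    rw [Nat.card_zpowers, ha]
    obtain ⟨n, hn⟩ := IsPGroup.iff_card.1 P.2
    rw [hn]
    by_contra hlt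
    have h2 : 2 ≤ n := by
      by_contra h
      interval_cases n <;> norm_num at hlt
    exact h49 ((pow_dvd_pow 7 h2).trans (hn ▸ (P : Subgroup K).card_subgroup_dvd_card))
  obtain ⟨h, hh⟩ := MulAction.exists_smul_eq K Q P
  refine ⟨h, ?_⟩
  rw [← hPa, ← hh, Sylow.coe_subgroup_smul]
  exact ⟨b, hQ (Subgroup.mem_zpowers b), rfl⟩

/-- An element of order 7 with a small centraliser has a small normaliser. -/
lemma card_normalizer_dvd {K : Type*} [Group K] [Finite K] {a : K} (ha : orderOf a = 7)
    (hC : Nat.card (Subgroup.centralizer ({a} : Set K)) ≤ 7) :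
    Nat.card (Subgroup.centralizer ({a} : Set K)) = 7 ∧
      Nat.card (Subgroup.normalizer (Subgroup.zpowers a : Set K)) ∣ 42 := by
  set N := Subgroup.normalizer (Subgroup.zpowers a : Set K)
  have hle : Subgroup.zpowers a ≤ Subgroup.centralizer ({a} : Set K) := by
    rw [Subgroup.zpowers_le, Subgroup.mem_centralizer_singleton_iff]
  have hC7 : Nat.card (Subgroup.centralizer ({a} : Set K)) = 7 :=
    le_antisymm hC (by rw [← ha, ← Nat.card_zpowers]; exact Subgroup.card_le_of_le hle)
  refine ⟨hC7, ?_⟩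
  set φ := (Subgroup.zpowers a).normalizerMonoidHom
  have h1 := φ.ker.card_mul_index
  rw [Subgroup.index_ker] at h1
  have hker : Nat.card φ.ker ∣ 7 := by
    rw [← hC7]
    refine (Subgroup.card_dvd_of_injective ((N.subtype.comp φ.ker.subtype).codRestrict
      (Subgroup.centralizer ({a} : Set K)) fun z => ?_) fun x y hxy =>
        Subtype.ext (Subtype.ext (Subtype.mk.inj hxy)))
    have hz : ((z : N) : K) * a * ((z : N) : K)⁻¹ = a := congrArg Subtype.val
      (DFunLike.congr_fun (MonoidHom.mem_ker.1 z.2) (⟨a, Subgroup.mem_zpowers a⟩ : Subgroup.zpowers a))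
    exact Subgroup.mem_centralizer_singleton_iff.2 (mul_inv_eq_iff_eq_mul.1 hz)
  have haut : Nat.card φ.range ∣ 6 := by
    have h := φ.range.card_subgroup_dvd_card
    rwa [IsCyclic.card_mulAut, Nat.card_zpowers, ha, Nat.totient_prime (by norm_num)] at h
  rw [← h1]
  exact Nat.mul_dvd_mul hker haut

/-- An action of the group on fewer than 28 points is impossible. -/
theorem no_small_action {G : Type*} [Group G] [Finite G] (hcard : Nat.card G = 1451520) {H : Subgroup G}
    (hcore : H.normalCore = ⊥) (hν : H.index ≤ 27) {a : G} (ha : orderOf a = 7)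
    (hC : Nat.card (Subgroup.centralizer ({a} : Set G)) ≤ 7)
    (hfix : 2 * H.index ≤ 9 * Nat.card {x : G ⧸ H // a • x = x}) : False := by
  classical
  have : Fact (Nat.Prime 7) := ⟨by norm_num⟩
  obtain ⟨hC7, hN⟩ := card_normalizer_dvd ha hC
  have h49 : ¬ 7 ^ 2 ∣ Nat.card G := by rw [hcard]; norm_num
  set N := Subgroup.normalizer (Subgroup.zpowers a : Set G) with hNdef
  set f := Nat.card {x : G ⧸ H // a • x = x}
  have hpa : IsPGroup 7 (Subgroup.zpowers a) :=
    IsPGroup.of_card (n := 1) (by rw [Nat.card_zpowers, ha, pow_one])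
  have hzfix : ∀ x : G ⧸ H, a • x = x → ∀ z ∈ Subgroup.zpowers a, z • x = x := fun x hx z hz =>
    (Subgroup.zpowers_le.2 (show a ∈ stabilizer G x from hx)) hz
  have hmod : H.index % 7 = f % 7 := by
    have h := hpa.card_modEq_card_fixedPoints (G ⧸ H)
    rw [← Subgroup.index_eq_card] at h
    refine h.trans (congrArg (· % 7) (Nat.card_congr (Equiv.subtypeEquivRight fun x => ?_)))
    exact ⟨fun hx => hx ⟨a, Subgroup.mem_zpowers a⟩, fun hx z => hzfix x hx z z.2⟩
  have hfact : Nat.card G ∣ H.index.factorial := by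
    rw [Subgroup.index_eq_card, ← Nat.card_perm]
    refine Subgroup.card_dvd_of_injective (MulAction.toPermHom G (G ⧸ H)) ?_
    rw [← MonoidHom.ker_eq_bot_iff, ← Subgroup.normalCore_eq_ker, hcore]
  have hdvd : H.index ∣ Nat.card G := H.index_dvd_card
  obtain ⟨x, hx⟩ : ∃ x : G ⧸ H, a • x = x := by
    by_contra! hno
    have : f = 0 := by
      have : IsEmpty {x : G ⧸ H // a • x = x} := ⟨fun z => hno z.1 z.2⟩
      exact Nat.card_of_isEmpty
    have hpos : 0 < H.index := Nat.pos_of_ne_zero Subgroup.index_ne_zero_of_finite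
    omega
  set H1 := stabilizer G x
  have hH1 : H1.index = H.index := by
    rw [index_stabilizer_of_transitive, Subgroup.index_eq_card]
  have hH1card : Nat.card H1 * H.index = 1451520 := by rw [← hH1, H1.card_mul_index, hcard]
  have h49' : ¬ 7 ^ 2 ∣ Nat.card H1 := fun h => h49 (h.trans H1.card_subgroup_dvd_card)
  have haH1 : a ∈ H1 := hx
  -- the fixed points form an orbit of the normaliser
  have horb : orbit N x = {y | a • y = y} := by
    ext y
    constructor
    · rintro ⟨⟨n, hn⟩, rfl⟩
      have h := hzfix x hx (n⁻¹ * a * n) ((Subgroup.mem_normalizer_iff''.1 hn a).1 (Subgroup.mem_zpowers a))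
      rw [mul_smul, mul_smul, inv_smul_eq_iff] at h
      exact h
    · intro hy
      obtain ⟨k, rfl⟩ := MulAction.exists_smul_eq G x y
      have hk : k⁻¹ * a * k ∈ H1 := by
        show (k⁻¹ * a * k) • x = x
        rw [mul_smul, mul_smul, inv_smul_eq_iff]; exact hy
      obtain ⟨h, hh⟩ := exists_conj_mem_zpowers h49' (a := ⟨a, haH1⟩) (b := ⟨_, hk⟩)
        (by rw [Subgroup.orderOf_mk, ha]) (by
          rw [Subgroup.orderOf_mk, ← ha]
          simpa using MulEquiv.orderOf_eq (MulAut.conj k⁻¹) a)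
      obtain ⟨i, hi⟩ := hh
      have hi' : a ^ i = (h : G) * (k⁻¹ * a * k) * (h : G)⁻¹ := congrArg Subtype.val hi
      refine ⟨⟨k * (h : G)⁻¹, ?_⟩, ?_⟩
      · rw [hNdef, Subgroup.mem_normalizer_iff'']
        have e : (k * (h : G)⁻¹)⁻¹ * a * (k * (h : G)⁻¹) = a ^ i := by rw [hi']; group
        have hmem : ∀ z ∈ Subgroup.zpowers a, (k * (h : G)⁻¹)⁻¹ * z * (k * (h : G)⁻¹) ∈ Subgroup.zpowers a := by
          rintro z ⟨j, rfl⟩
          have := Subgroup.zpow_mem _ (show a ^ i ∈ Subgroup.zpowers a from ⟨i, rfl⟩) j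
          rw [← e] at this
          simpa only [conj_zpow, show (k * (h : G)⁻¹)⁻¹ * a * (k * (h : G)⁻¹)
            = (k * (h : G)⁻¹)⁻¹ * a * ((k * (h : G)⁻¹)⁻¹)⁻¹ by rw [inv_inv], inv_inv] using this
        intro z
        refine ⟨hmem z, fun hz => ?_⟩
        have hinj := Finite.injective_iff_surjective.1 (show Function.Injective
          (fun w : Subgroup.zpowers a => (⟨_, hmem w w.2⟩ : Subgroup.zpowers a)) from fun u v huv =>
            Subtype.ext (by simpa using congrArg Subtype.val huv)) ⟨_, hz⟩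
        obtain ⟨w, hw⟩ := hinj
        have : (w : G) = z := by simpa using congrArg Subtype.val hw
        exact this ▸ w.2
      · show (k * (h : G)⁻¹) • x = k • x
        rw [mul_smul, inv_smul_eq_iff.2 h.2.symm]
  have hst := (stabilizer N x).card_mul_index
  rw [index_stabilizer, horb, ← Nat.card_coe_set_eq] at hst
  have hst7 : 7 ∣ Nat.card (stabilizer N x) := by
    have ha' : a ∈ N := Subgroup.le_normalizer (Subgroup.mem_zpowers a)
    have h := orderOf_dvd_natCard (⟨⟨a, ha'⟩, hx⟩ : stabilizer N x)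
    rw [← Subgroup.orderOf_coe, ← Subgroup.orderOf_coe] at h
    change orderOf a ∣ _ at h
    rwa [ha] at h
  change Nat.card (stabilizer N x) * f = _ at hst
  have hf6 : f ∣ 6 := by
    have h : 7 * f ∣ 7 * 6 := (Nat.mul_dvd_mul_right hst7 f).trans (hst ▸ hN)
    exact Nat.dvd_of_mul_dvd_mul_left (by norm_num) h
  have hf6' := Nat.le_of_dvd (by norm_num) hf6
  have hcases : f = 6 ∧ (H.index = 20 ∨ H.index = 27) := by
    rw [hcard] at hfact hdvd
    have hd : f ∈ Nat.divisors 6 := Nat.mem_divisors.2 ⟨hf6, by norm_num⟩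
    rw [show Nat.divisors 6 = {1, 2, 3, 6} from rfl] at hd
    simp only [Finset.mem_insert, Finset.mem_singleton] at hd
    have hneg : H.index ∉ ({1, 2, 3, 6, 8, 9, 10, 13} : Finset ℕ) := fun h => by
      simp only [Finset.mem_insert, Finset.mem_singleton] at h
      revert hfact hdvd
      rcases h with h | h | h | h | h | h | h | h <;> rw [h] <;> norm_num [Nat.factorial]
    simp only [Finset.mem_insert, Finset.mem_singleton] at hneg
    omega
  obtain ⟨hf, hidx⟩ := hcases
  have hst1 : Nat.card (stabilizer N x) = 7 := by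
    have h : Nat.card (stabilizer N x) * 6 ∣ 7 * 6 := by rw [← hf, hst, hf]; exact hN
    exact ((Nat.dvd_prime (by norm_num)).1 (Nat.dvd_of_mul_dvd_mul_right (by norm_num) h)).resolve_left
      fun h1 => by rw [h1] at hst7; norm_num at hst7
  -- a normal complement
  have hcardP : Nat.card ((Subgroup.zpowers a).subgroupOf H1) = 7 := by
    rw [Nat.card_congr (Subgroup.subgroupOfEquivOfLe (Subgroup.zpowers_le.2 haH1)).toEquiv, Nat.card_zpowers, ha]
  have hfac : (Nat.card H1).factorization 7 = 1 := by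
    have h7 : 7 ∣ Nat.card H1 := hcardP ▸ Subgroup.card_subgroup_dvd_card _
    have h1 : 1 ≤ (Nat.card H1).factorization 7 :=
      (Nat.Prime.pow_dvd_iff_le_factorization (by norm_num) Nat.card_pos.ne').1 (by rwa [pow_one])
    by_contra hne
    exact h49' ((Nat.Prime.pow_dvd_iff_le_factorization (by norm_num) Nat.card_pos.ne').2 (by omega))
  set P1 : Sylow 7 H1 := Sylow.ofCard ((Subgroup.zpowers a).subgroupOf H1) (by rw [hcardP, hfac, pow_one]) with hP1
  have hP : Subgroup.normalizer ((P1 : Subgroup H1) : Set H1) ≤ Subgroup.centralizer ((P1 : Subgroup H1) : Set H1) := by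
    intro h hh
    have hhN : (h : G) ∈ N := by
      rw [hNdef, Subgroup.mem_normalizer_iff]
      intro z
      constructor
      · intro hz
        exact (Subgroup.mem_normalizer_iff.1 hh ⟨z, Subgroup.zpowers_le.2 haH1 hz⟩).1 hz
      · intro hz
        have hz1 := Subgroup.zpowers_le.2 haH1 hz
        have hzH : z ∈ H1 := by
          have := H1.mul_mem (H1.mul_mem (H1.inv_mem h.2) hz1) h.2
          simpa [mul_assoc] using this
        exact (Subgroup.mem_normalizer_iff.1 hh ⟨z, hzH⟩).2 hz
    have hzp : ∀ w : stabilizer N x, ((w : N) : G) ∈ Subgroup.zpowers a := by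
      have hbij := Nat.bijective_iff_injective_and_card
        (fun u : Subgroup.zpowers a => (⟨⟨u, Subgroup.le_normalizer u.2⟩, hzfix x hx u u.2⟩ : stabilizer N x))
      intro w
      obtain ⟨u, hu⟩ := (hbij.2 ⟨fun u v huv => Subtype.ext (congrArg (fun w => ((w : stabilizer N x).1 : G)) huv),
        by rw [Nat.card_zpowers, ha, hst1]⟩).2 w
      rw [← hu]
      exact u.2
    obtain ⟨i, hi⟩ := hzp ⟨⟨h, hhN⟩, h.2⟩
    intro z hz
    obtain ⟨j, hj⟩ := (show (z : G) ∈ Subgroup.zpowers a from hz)
    apply Subtype.ext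
    change a ^ i = (h : G) at hi
    change a ^ j = (z : G) at hj
    rw [Subgroup.coe_mul, Subgroup.coe_mul, ← hi, ← hj]
    exact ((Commute.refl a).zpow_zpow j i).eq
  set K := (MonoidHom.transferSylow P1 hP).ker with hKdef
  have hcompl := MonoidHom.ker_transferSylow_isComplement' P1 hP
  have hKc : Nat.card K * 7 = Nat.card H1 := by
    rw [← hcompl.card_mul_card]; congr 1; exact hcardP.symm
  have hKi : K.index = 7 := by
    have := K.card_mul_index
    rw [← hKc] at this
    exact Nat.eq_of_mul_eq_mul_left Nat.card_pos this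
  -- a Sylow subgroup of the complement
  obtain ⟨r, e, hr, hre, hfr, hmod7⟩ : ∃ r e : ℕ, r.Prime ∧ r ≠ 7 ∧ (Nat.card K).factorization r = e ∧
      r ^ e % 7 ≠ 1 := by
    rcases hidx with h | h <;> rw [h] at hH1card
    · refine ⟨3, 4, by norm_num, by norm_num, ?_, by norm_num⟩
      rw [show Nat.card K = 3 ^ 4 * 128 by omega, Nat.factorization_mul (by norm_num) (by norm_num),
        Finsupp.coe_add, Pi.add_apply, Nat.factorization_eq_zero_of_not_dvd (show ¬ 3 ∣ 128 by norm_num),
        Nat.Prime.factorization_pow (by norm_num), Finsupp.single_eq_same]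
    · refine ⟨5, 1, by norm_num, by norm_num, ?_, by norm_num⟩
      rw [show Nat.card K = 5 ^ 1 * 1536 by omega, Nat.factorization_mul (by norm_num) (by norm_num),
        Finsupp.coe_add, Pi.add_apply, Nat.factorization_eq_zero_of_not_dvd (show ¬ 5 ∣ 1536 by norm_num),
        Nat.Prime.factorization_pow (by norm_num), Finsupp.single_eq_same]
  have : Fact r.Prime := ⟨hr⟩
  obtain ⟨R⟩ : Nonempty (Sylow r K) := inferInstance
  set R' := (R : Subgroup K).map K.subtype with hR'
  have hR'card : Nat.card R' = r ^ e := by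
    rw [hR', Nat.card_congr (Subgroup.equivMapOfInjective _ _ K.subtype_injective).toEquiv.symm,
      Sylow.card_eq_multiplicity, hfr]
  have hsup : Subgroup.normalizer (R' : Set H1) ⊔ K = ⊤ := Sylow.normalizer_sup_eq_top R
  set M := Subgroup.normalizer (R' : Set H1)
  have hM7 : 7 ∣ Nat.card M := by
    rw [← hKi, Subgroup.index_eq_card]
    refine Subgroup.card_dvd_of_surjective ((QuotientGroup.mk' K).comp M.subtype) ?_
    rw [← MonoidHom.range_eq_top, MonoidHom.range_comp, Subgroup.range_subtype]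
    have := congrArg (Subgroup.map (QuotientGroup.mk' K)) hsup
    rwa [Subgroup.map_sup, QuotientGroup.map_mk'_self, sup_bot_eq,
      Subgroup.map_top_of_surjective _ (QuotientGroup.mk'_surjective _)] at this
  obtain ⟨q, hq⟩ := exists_prime_orderOf_dvd_card' 7 hM7
  have hqG : orderOf (((q : H1)) : G) = 7 := by rw [Subgroup.orderOf_coe, Subgroup.orderOf_coe, hq]
  have hCq : Nat.card (Subgroup.centralizer ({((q : H1) : G)} : Set G)) = 7 := by
    obtain ⟨h, hh⟩ := exists_conj_mem_zpowers h49 ha hqG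
    rw [← hC7]
    have heq : Subgroup.zpowers (h * ((q : H1) : G) * h⁻¹) = Subgroup.zpowers a :=
      Subgroup.eq_of_le_of_card_ge (Subgroup.zpowers_le.2 hh) (by
        rw [Nat.card_zpowers, Nat.card_zpowers, ha, ← hqG]
        simpa using (MulEquiv.orderOf_eq (MulAut.conj h) ((q : H1) : G)).ge)
    have hcomm : ∀ z : G, Commute z a ↔ Commute z (h * ((q : H1) : G) * h⁻¹) := by
      intro z
      obtain ⟨i, hi⟩ := (heq.symm ▸ Subgroup.mem_zpowers a : a ∈ Subgroup.zpowers (h * ((q : H1) : G) * h⁻¹))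
      obtain ⟨j, hj⟩ := hh
      constructor
      · intro hz; rw [← hj]; exact hz.zpow_right j
      · intro hz; rw [← hi]; exact hz.zpow_right i
    refine Nat.card_congr ((MulAut.conj h).toEquiv.subtypeEquiv fun z => ?_)
    show z ∈ Subgroup.centralizer _ ↔ h * z * h⁻¹ ∈ Subgroup.centralizer _
    rw [Subgroup.mem_centralizer_singleton_iff, Subgroup.mem_centralizer_singleton_iff]
    refine Iff.trans ?_ (hcomm (h * z * h⁻¹)).symm
    exact ⟨fun e => Commute.map (show Commute z _ from e) (MulAut.conj h).toMonoidHom, fun e => by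
      have := Commute.map e (MulAut.conj h⁻¹).toMonoidHom
      simpa [MulAut.conj_apply, mul_assoc, Commute, SemiconjBy] using this⟩
  let _ : MulAction (Subgroup.zpowers q) R' :=
    MulAction.compHom R' (R'.normalizerMonoidHom.comp (Subgroup.zpowers q).subtype)
  have hpq : IsPGroup 7 (Subgroup.zpowers q) :=
    IsPGroup.of_card (n := 1) (by rw [Nat.card_zpowers, hq, pow_one])
  have hmodR : r ^ e % 7 = Nat.card (fixedPoints (Subgroup.zpowers q) R') % 7 :=
    hR'card ▸ hpq.card_modEq_card_fixedPoints R'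
  have h1 : Nat.card (fixedPoints (Subgroup.zpowers q) R') = 1 := by
    rw [Nat.card_eq_one_iff_unique]
    refine ⟨⟨fun u v => ?_⟩, ⟨1, fun z => map_one (R'.normalizerMonoidHom (z : M))⟩⟩
    suffices ∀ u : fixedPoints (Subgroup.zpowers q) R', (u : R') = 1 from Subtype.ext ((this u).trans (this v).symm)
    rintro ⟨u, hu⟩
    have h := congrArg (fun w : R' => ((w : H1) : G)) (hu ⟨q, Subgroup.mem_zpowers q⟩)
    have hmem : ((u : H1) : G) ∈ Subgroup.centralizer ({((q : H1) : G)} : Set G) := by
      rw [Subgroup.mem_centralizer_singleton_iff]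
      change ((q : H1) : G) * ((u : H1) : G) * (((q : H1) : G))⁻¹ = _ at h
      exact (mul_inv_eq_iff_eq_mul.1 h).symm
    have hd1 : orderOf u ∣ r ^ e := hR'card ▸ orderOf_dvd_natCard u
    have hd2 : orderOf u ∣ 7 := by
      rw [← hCq, ← Subgroup.orderOf_coe u, ← Subgroup.orderOf_coe (u : H1), ← Subgroup.orderOf_mk _ hmem]
      exact orderOf_dvd_natCard _
    have hco : Nat.Coprime (r ^ e) 7 :=
      ((Nat.coprime_primes hr (by norm_num)).2 hre).pow_left e
    exact orderOf_eq_one_iff.1 (Nat.eq_one_of_dvd_coprimes hco hd1 hd2)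
  rw [h1] at hmodR
  exact hmod7 hmodR

/-- The minimal index of `Sp₆(2)`. -/
theorem le_index_sp_six {F : Type*} [Field F] [Fintype F] [CharP F 2] (h2 : Nat.card F = 2)
    (H : Subgroup (Cfsg.PSp 3 F)) (hH : H ≠ ⊤) : 28 ≤ H.index := by
  have hF : Fintype.card F = 2 := by rw [← Nat.card_eq_fintype_card, h2]
  have hcard : Nat.card (Matrix.symplecticGroup (Fin 3) F) = 1451520 := by
    rw [ClassicalLinear.card_sp, hF]; norm_num [Finset.prod_range_succ]
  have : Finite (Matrix.symplecticGroup (Fin 3) F) := Nat.finite_of_card_ne_zero (by rw [hcard]; norm_num)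
  have : IsSimpleGroup (Cfsg.PSp 3 F) := ClassicalLinear.isSimpleGroup_psp (by norm_num) (Or.inl le_rfl)
  set π := QuotientGroup.mk' (Subgroup.center (Matrix.symplecticGroup (Fin 3) F))
  obtain ⟨hπi, hπs⟩ := mk_bijective (F := F) h2 (show 1 ≤ 3 by norm_num)
  set H' := H.comap π
  have hidx : H'.index = H.index := Subgroup.index_comap_of_surjective _ hπs
  have hcore : H'.normalCore = ⊥ := by
    have hn : (H'.normalCore.map π).Normal := Subgroup.Normal.map inferInstance _ hπs
    have hle : H'.normalCore.map π ≤ H := Subgroup.map_le_iff_le_comap.2 H'.normalCore_le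
    exact (Subgroup.map_eq_bot_iff_of_injective _ hπi).1
      (hn.eq_bot_or_eq_top.resolve_right fun h => hH (top_le_iff.1 (h ▸ hle)))
  by_contra hlt
  obtain ⟨E, _, _, hE, hE2, ι, g, hι, hg, hC⟩ := exists_torus (F := F) h2
  let _ := MulAction.compHom (Matrix.symplecticGroup (Fin 3) F ⧸ H') ι
  have hfix := two_mul_card_le (X := Matrix.symplecticGroup (Fin 3) F ⧸ H') hE hE2 hg
    (by rw [← Subgroup.index_eq_card, hidx]; omega)
  rw [← Subgroup.index_eq_card] at hfix
  exact no_small_action hcard hcore (by omega) (by rw [orderOf_injective ι hι, hg]) hC hfix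

end CfsgLib.MinIndexSymp
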