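import Cfsg.Agent.Lib.MinIndex.Symp.Two
import Cfsg.Agent.Lib.SL2.Dickson.Index

/-!
`SL₂(8)` inside `Sp₆(2)` and the centraliser of an element of order 7 of it.
-/

set_option autoImplicit false
set_option linter.unusedSectionVars false

namespace CfsgLib.MinIndexSymp

open Module
open scoped MatrixGroups

variable {E : Type*} [Field E]

/-- A map changing `a` into its inverse vanishes. -/
lemma eq_zero_of_inv_equivariant {a : Eˣ} (ha : orderOf a = 7)
    (hgen : ∀ x : E, x ≠ 0 → ∃ j : ℕ, x = (a : E) ^ j) {f : E →+ E}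
    (hf : ∀ x, f (a * x) = (a : E)⁻¹ * f x) : f = 0 := by
  have hpow : ∀ j : ℕ, f ((a : E) ^ j) = ((a : E) ^ j)⁻¹ * f 1 := by
    intro j
    induction j with
    | zero => simp
    | succ j ih => rw [pow_succ', hf, ih, mul_inv_rev]; ring
  have h1 : f 1 = 0 := by
    by_contra h1
    have hne1 : (1 : E) + a ≠ 0 := fun h => by
      have h2 : (a : E) ^ 2 = 1 := by linear_combination ((a : E) - 1) * h
      have h3 : orderOf a ∣ 2 := orderOf_dvd_of_pow_eq_one (Units.ext (by simpa using h2))
      rw [ha] at h3; norm_num at h3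
    obtain ⟨j, hj⟩ := hgen _ hne1
    have h2 := hpow j
    rw [← hj, map_add, show f a = (a : E)⁻¹ * f 1 by simpa using hpow 1] at h2
    have h4 : (1 + (a : E)⁻¹) = (1 + (a : E))⁻¹ := mul_right_cancel₀ h1 (by rw [add_mul, one_mul, h2])
    have h5 : (a : E) ^ 2 + a + 1 = 0 := by
      field_simp at h4
      linear_combination h4
    have h6 : orderOf a ∣ 3 :=
      orderOf_dvd_of_pow_eq_one (Units.ext (by simp; linear_combination ((a : E) - 1) * h5))
    rw [ha] at h6; norm_num at h6
  refine AddMonoidHom.ext fun x => ?_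
  rcases eq_or_ne x 0 with rfl | hx
  · simp
  · obtain ⟨j, rfl⟩ := hgen x hx
    rw [hpow, h1, mul_zero, AddMonoidHom.zero_apply]

/-- A map commuting with `a` is a multiplication. -/
lemma eq_mul_of_equivariant {a : Eˣ} (hgen : ∀ x : E, x ≠ 0 → ∃ j : ℕ, x = (a : E) ^ j) {f : E →+ E}
    (hf : ∀ x, f (a * x) = (a : E) * f x) (x : E) : f x = x * f 1 := by
  rcases eq_or_ne x 0 with rfl | hx
  · simp
  · obtain ⟨j, rfl⟩ := hgen x hx
    clear hx
    induction j with
    | zero => simp
    | succ j ih => rw [pow_succ', hf, ih]; ring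

variable {F : Type*} [Field F] [Fintype F]

/-- `SL₂(8)` and its element of order 7 with a small centraliser, inside `Sp₆(2)`. -/
theorem exists_torus (h2 : Nat.card F = 2) [CharP F 2] :
    ∃ (E : Type) (_ : Field E) (_ : Finite E), Nat.card E = 8 ∧ (2 : E) = 0 ∧
      ∃ (ι : SL(2, E) →* Matrix.symplecticGroup (Fin 3) F) (g : SL(2, E)), Function.Injective ι ∧
        orderOf g = 7 ∧ Nat.card (Subgroup.centralizer ({ι g} : Set (Matrix.symplecticGroup (Fin 3) F))) ≤ 7 := by
  obtain ⟨E, _, _, _, hE⟩ : ∃ (E : Type) (_ : Field E) (_ : Algebra F E) (_ : Finite E), finrank F E = 3 :=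
    ⟨FiniteField.Extension F 2 3, inferInstance, inferInstance, inferInstance,
      FiniteField.finrank_extension F 2 3⟩
  have : Module.Finite F E := Module.Finite.of_finite
  have hcard : Nat.card E = 8 := by
    rw [Module.natCard_eq_pow_finrank (K := F), hE, h2]; rfl
  have h20 : (2 : E) = 0 := by
    rw [← map_ofNat (algebraMap F E) 2, CharTwo.two_eq_zero, map_zero]
  let b : Basis (Fin 3) F E := Module.finBasisOfFinrankEq F E hE
  let b' := (Algebra.traceForm F E).dualBasis (traceForm_nondegenerate F E) b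
  have hbb : ∀ i j, Algebra.trace F E (b i * b' j) = if i = j then 1 else 0 := fun i j => by
    rw [mul_comm, ← Algebra.traceForm_apply, LinearMap.BilinForm.apply_dualBasis_left]
  let C : (Fin 3 ⊕ Fin 3 → F) ≃ₗ[F] E × E :=
    ((LinearEquiv.sumArrowLequivProdArrow (Fin 3) (Fin 3) F F).trans (LinearEquiv.prodComm F _ _)).trans
      (b.equivFun.symm.prodCongr b'.equivFun.symm)
  have hC : ∀ x y, Cfsg.sympForm 3 F x y
      = Algebra.trace F E ((C x).1 * (C y).2 - (C x).2 * (C y).1) := fun x y => by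
    have h1 : ∀ z, (C z).1 = ∑ i, z (.inr i) • b i ∧ (C z).2 = ∑ i, z (.inl i) • b' i := fun z => by
      simp [C, Basis.equivFun_symm_apply, LinearEquiv.sumArrowLequivProdArrow, Equiv.sumArrowEquivProdArrow]
    rw [(h1 x).1, (h1 x).2, (h1 y).1, (h1 y).2, sympForm_sum, map_sub, Finset.sum_mul_sum,
      Finset.sum_mul_sum]
    simp only [map_sum, smul_mul_smul_comm, map_smul, mul_comm (b' _) (b _), hbb, smul_eq_mul, mul_ite,
      mul_one, mul_zero, Finset.sum_ite_eq, Finset.sum_ite_eq', Finset.mem_univ, if_true,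
      Finset.sum_sub_distrib]
  let act : SL(2, E) → E × E →ₗ[F] E × E := fun M =>
    { toFun := fun p => ((M : Matrix (Fin 2) (Fin 2) E) 0 0 * p.1 + (M : Matrix (Fin 2) (Fin 2) E) 0 1 * p.2,
        (M : Matrix (Fin 2) (Fin 2) E) 1 0 * p.1 + (M : Matrix (Fin 2) (Fin 2) E) 1 1 * p.2)
      map_add' := fun p q => by ext <;> simp <;> ring
      map_smul' := fun c p => by ext <;> simp [mul_smul_comm, smul_add] }
  have hmul : ∀ M N p, act (M * N) p = act M (act N p) := fun M N p => by
    ext <;> simp [act, Matrix.mul_apply, Fin.sum_univ_two] <;> ring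
  have hone : ∀ p, act 1 p = p := fun p => by ext <;> simp [act]
  let eqv : SL(2, E) → ((Fin 3 ⊕ Fin 3 → F) ≃ₗ[F] (Fin 3 ⊕ Fin 3 → F)) := fun M =>
    (C.trans { act M with
      invFun := act M⁻¹
      left_inv := fun p => by
        show act M⁻¹ (act M p) = p
        rw [← hmul, inv_mul_cancel, hone]
      right_inv := fun p => by
        show act M (act M⁻¹ p) = p
        rw [← hmul, mul_inv_cancel, hone] }).trans C.symm
  have heqv : ∀ M v, eqv M v = C.symm (act M (C v)) := fun M v => rfl
  have hiso : ∀ M u v, Cfsg.sympForm 3 F (eqv M u) (eqv M v) = Cfsg.sympForm 3 F u v := fun M u v => by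
    have hd : (M : Matrix (Fin 2) (Fin 2) E) 0 0 * (M : Matrix (Fin 2) (Fin 2) E) 1 1
        - (M : Matrix (Fin 2) (Fin 2) E) 0 1 * (M : Matrix (Fin 2) (Fin 2) E) 1 0 = 1 := by
      rw [← Matrix.det_fin_two]; exact M.2
    rw [hC, hC, heqv, heqv, C.apply_symm_apply, C.apply_symm_apply]
    congr 1
    simp only [act, LinearMap.coe_mk, AddHom.coe_mk]
    linear_combination ((C u).1 * (C v).2 - (C u).2 * (C v).1) * hd
  let ι : SL(2, E) →* Matrix.symplecticGroup (Fin 3) F :=
    { toFun := fun M => Forms.spOfEquiv (eqv M) (hiso M)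
      map_one' := ClassicalLinear.sp_ext fun x => by
        rw [ClassicalLinear.sp_smul_eq, Forms.spOfEquiv_mulVec, one_smul, heqv, hone, C.symm_apply_apply]
      map_mul' := fun M N => ClassicalLinear.sp_ext fun x => by
        rw [mul_smul, ClassicalLinear.sp_smul_eq, Forms.spOfEquiv_mulVec, ClassicalLinear.sp_smul_eq,
          Forms.spOfEquiv_mulVec, ClassicalLinear.sp_smul_eq, Forms.spOfEquiv_mulVec]
        simp only [heqv, hmul, C.apply_symm_apply] }
  have hι : ∀ M v, C (ι M • v) = act M (C v) := fun M v => by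
    rw [ClassicalLinear.sp_smul_eq, show (ι M : Matrix (Fin 3 ⊕ Fin 3) (Fin 3 ⊕ Fin 3) F).mulVec v = eqv M v
      from Forms.spOfEquiv_mulVec (eqv M) (hiso M) v, heqv, C.apply_symm_apply]
  have hinj : Function.Injective ι := fun M N h => by
    have h1 : ∀ p, act M p = act N p := fun p => by
      rw [← C.apply_symm_apply p, ← hι, ← hι, h]
    refine Subtype.ext (Matrix.ext fun i j => ?_)
    have e1 := h1 (1, 0)
    have e2 := h1 (0, 1)
    simp [act] at e1 e2
    fin_cases i <;> fin_cases j <;> simp [e1, e2]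
  obtain ⟨a, ha⟩ := IsCyclic.exists_generator (α := Eˣ)
  have hu : Nat.card Eˣ = 7 := by rw [Nat.card_units, hcard]
  have ha7 : orderOf a = 7 := by rw [orderOf_eq_card_of_forall_mem_zpowers ha, hu]
  have hgen : ∀ x : E, x ≠ 0 → ∃ j : ℕ, x = (a : E) ^ j := fun x hx => by
    obtain ⟨j, hj⟩ := (Submonoid.mem_powers_iff _ _).1 (mem_powers_iff_mem_zpowers.2 (ha (Units.mk0 x hx)))
    exact ⟨j, by rw [← Units.val_pow_eq_pow_val, hj]; rfl⟩
  have ha' : orderOf a⁻¹ = 7 := by rw [orderOf_inv, ha7]
  have hgen' : ∀ x : E, x ≠ 0 → ∃ j : ℕ, x = ((a⁻¹ : Eˣ) : E) ^ j := fun x hx => by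
    obtain ⟨j, hj⟩ := hgen x⁻¹ (inv_ne_zero hx)
    exact ⟨j, by rw [Units.val_inv_eq_inv_val, inv_pow, ← hj, inv_inv]⟩
  refine ⟨E, inferInstance, inferInstance, hcard, h20, ι, SL2.diag a, hinj, ?_, ?_⟩
  · rw [← ha7]
    exact orderOf_injective (MonoidHom.mk' SL2.diag SL2.diag_mul) SL2.diag_injective a
  have hg : ∀ p : E × E, act (SL2.diag a) p = ((a : E) * p.1, (a : E)⁻¹ * p.2) := fun p => by
    simp [act, SL2.diag_coe]
  set Z := Subgroup.centralizer ({ι (SL2.diag a)} : Set (Matrix.symplecticGroup (Fin 3) F))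
  have key : ∀ h : Z, ∃ c : Eˣ, ∀ p : E × E,
      C ((h : Matrix.symplecticGroup (Fin 3) F) • C.symm p) = ((c : E) * p.1, (c : E)⁻¹ * p.2) := by
    intro h
    set k : E × E →+ E × E :=
      { toFun := fun p => C ((h : Matrix.symplecticGroup (Fin 3) F) • C.symm p)
        map_zero' := by simp [ClassicalLinear.sp_smul_eq]
        map_add' := fun p q => by simp [ClassicalLinear.sp_smul_eq, Matrix.mulVec_add] } with hk
    have hcomm : ∀ p : E × E, k ((a : E) * p.1, (a : E)⁻¹ * p.2) = ((a : E) * (k p).1, (a : E)⁻¹ * (k p).2) := by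
      intro p
      have hh := Subgroup.mem_centralizer_singleton_iff.1 h.2
      simp only [hk, AddMonoidHom.coe_mk, ZeroHom.coe_mk]
      rw [← hg, ← hg, ← hι, smul_smul, ← hh, mul_smul, show C.symm (act (SL2.diag a) p)
        = ι (SL2.diag a) • C.symm p from C.injective (by
          rw [hι, C.apply_symm_apply, C.apply_symm_apply])]
    have hv : ((AddMonoidHom.snd E E).comp k).comp (AddMonoidHom.inl E E) = 0 :=
      eq_zero_of_inv_equivariant ha7 hgen fun x => by simpa using congrArg Prod.snd (hcomm (x, 0))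
    have hu' : ((AddMonoidHom.fst E E).comp k).comp (AddMonoidHom.inr E E) = 0 :=
      eq_zero_of_inv_equivariant ha' hgen' fun x => by
        simpa [Units.val_inv_eq_inv_val] using congrArg Prod.fst (hcomm (0, x))
    have hu1 := eq_mul_of_equivariant hgen (f := ((AddMonoidHom.fst E E).comp k).comp (AddMonoidHom.inl E E))
      fun x => by simpa using congrArg Prod.fst (hcomm (x, 0))
    have hv1 := eq_mul_of_equivariant hgen' (f := ((AddMonoidHom.snd E E).comp k).comp (AddMonoidHom.inr E E))
      fun x => by simpa [Units.val_inv_eq_inv_val] using congrArg Prod.snd (hcomm (0, x))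
    set c := (k (1, 0)).1
    set d := (k (0, 1)).2
    have hkp : ∀ p, k p = (c * p.1, d * p.2) := by
      intro p
      have e : k p = k (p.1, 0) + k (0, p.2) := by rw [← map_add]; simp
      have e1 := DFunLike.congr_fun hv p.1
      have e2 := DFunLike.congr_fun hu' p.2
      have e3 := hu1 p.1
      have e4 := hv1 p.2
      simp only [AddMonoidHom.comp_apply, AddMonoidHom.inl_apply, AddMonoidHom.inr_apply,
        AddMonoidHom.coe_fst, AddMonoidHom.coe_snd, AddMonoidHom.zero_apply] at e1 e2 e3 e4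
      rw [e]
      ext <;> simp [e1, e2, e3, e4, c, d, mul_comm]
    have hcd : c * d = 1 := by
      refine sub_eq_zero.1 ((traceForm_nondegenerate F E).1 _ fun z => ?_)
      have h1 := ClassicalLinear.sympForm_smul (h : Matrix.symplecticGroup (Fin 3) F) (C.symm (1, 0)) (C.symm (0, z))
      rw [hC, hC, show C ((h : Matrix.symplecticGroup (Fin 3) F) • C.symm (1, 0)) = k (1, 0) from rfl,
        show C ((h : Matrix.symplecticGroup (Fin 3) F) • C.symm (0, z)) = k (0, z) from rfl, hkp, hkp,
        C.apply_symm_apply, C.apply_symm_apply] at h1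
      rw [Algebra.traceForm_apply, sub_mul, map_sub, sub_eq_zero]
      simpa [mul_assoc] using h1
    have hc : c ≠ 0 := left_ne_zero_of_mul_eq_one hcd
    exact ⟨Units.mk0 c hc, fun p => by
      rw [Units.val_mk0, show c⁻¹ = d from (eq_inv_of_mul_eq_one_right hcd).symm]; exact hkp p⟩
  choose f hf using key
  rw [← hu]
  refine Nat.card_le_card_of_injective f fun h h' he => Subtype.ext (ClassicalLinear.sp_ext fun x => ?_)
  apply C.injective
  rw [← C.symm_apply_apply x, hf, hf, he]

end CfsgLib.MinIndexSymp
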