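import Cfsg.Agent.Lib.MinIndex.Orth.PlusMain
import Cfsg.Agent.Lib.ClassicalLinear.SympSimple
import Cfsg.Agent.Lib.ClassicalLinear.SympCard
import Cfsg.Agent.Lib.Forms.SympBridge

/-!
The symplectic groups over two elements: a small action is trivial on the orthogonal group of plus
type, hence trivial; the orthogonal group of minus type attains the bound.
-/

set_option autoImplicit false
set_option linter.unusedSectionVars false

namespace CfsgLib.MinIndexSymp

open QuadraticMap Module CfsgLib.ClassicalForms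

variable {F : Type*} [Field F] {m : ℕ}

/-- The isometries of a form whose polar form is the symplectic one, inside the symplectic group. -/
noncomputable def formHom {V : Type*} [AddCommGroup V] [Module F V] (Q : QuadraticForm F V)
    (ψ : V ≃ₗ[F] (Fin m ⊕ Fin m → F))
    (hψ : ∀ u v, Cfsg.sympForm m F (ψ u) (ψ v) = polar Q u v) :
    orth Q →* Matrix.symplecticGroup (Fin m) F where
  toFun g := Forms.spOfEquiv ((ψ.symm.trans (g : V ≃ₗ[F] V)).trans ψ) fun u v => by
    simp only [LinearEquiv.trans_apply]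
    rw [hψ, polar_apply, ← hψ, ψ.apply_symm_apply, ψ.apply_symm_apply]
  map_one' := ClassicalLinear.sp_ext fun x => by
    rw [ClassicalLinear.sp_smul_eq, Forms.spOfEquiv_mulVec, one_smul]
    simp
  map_mul' g h := ClassicalLinear.sp_ext fun x => by
    rw [mul_smul, ClassicalLinear.sp_smul_eq, Forms.spOfEquiv_mulVec, ClassicalLinear.sp_smul_eq,
      Forms.spOfEquiv_mulVec, ClassicalLinear.sp_smul_eq, Forms.spOfEquiv_mulVec]
    simp [orth_mul_apply]

lemma formHom_injective {V : Type*} [AddCommGroup V] [Module F V] {Q : QuadraticForm F V}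
    {ψ : V ≃ₗ[F] (Fin m ⊕ Fin m → F)}
    {hψ : ∀ u v, Cfsg.sympForm m F (ψ u) (ψ v) = polar Q u v} :
    Function.Injective (formHom Q ψ hψ) := by
  refine (injective_iff_map_eq_one _).2 fun g hg => orth_ext fun v => ?_
  have h : formHom Q ψ hψ g • ψ v = ψ v := by rw [hg, one_smul]
  rw [ClassicalLinear.sp_smul_eq] at h
  have h' : ψ ((g : V ≃ₗ[F] V) (ψ.symm (ψ v))) = ψ v :=
    (Forms.spOfEquiv_mulVec ((ψ.symm.trans (g : V ≃ₗ[F] V)).trans ψ) (fun u v => by
      simp only [LinearEquiv.trans_apply]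
      rw [hψ, polar_apply, ← hψ, ψ.apply_symm_apply, ψ.apply_symm_apply]) (ψ v)).symm.trans h
  simpa [orth_one_apply] using h'

lemma sympForm_sum (u v : Fin m ⊕ Fin m → F) :
    Cfsg.sympForm m F u v = ∑ i, (u (.inr i) * v (.inl i) - u (.inl i) * v (.inr i)) := by
  simp [Cfsg.sympForm, Matrix.J, dotProduct, Matrix.mulVec, Fintype.sum_sum_type, Matrix.one_apply,
    Finset.sum_sub_distrib]
  ring

lemma polar_qPlus (u v : Fin m ⊕ Fin m → F) :
    polar (qPlus m F) u v = ∑ i, (u (.inl i) * v (.inr i) + v (.inl i) * u (.inr i)) := by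
  simp only [polar, qPlus_apply, Cfsg.quadFormPlus, Pi.add_apply]
  rw [← Finset.sum_sub_distrib, ← Finset.sum_sub_distrib]
  exact Finset.sum_congr rfl fun i _ => by ring

lemma sympForm_eq_polar_qPlus [CharP F 2] (u v : Fin m ⊕ Fin m → F) :
    Cfsg.sympForm m F u v = polar (qPlus m F) u v := by
  rw [polar_qPlus, sympForm_sum]
  exact Finset.sum_congr rfl fun i _ => by rw [CharTwo.sub_eq_add]; ring

section TwoElements

variable [Fintype F] (h2 : Nat.card F = 2)
include h2

lemma center_sp_eq_bot (hm : 1 ≤ m) :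
    Subgroup.center (Matrix.symplecticGroup (Fin m) F) = ⊥ := by
  rw [← Subgroup.card_eq_one, ClassicalLinear.card_center_sp hm, ← Nat.card_eq_fintype_card, h2]
  rfl

lemma mk_bijective (hm : 1 ≤ m) :
    Function.Bijective (QuotientGroup.mk' (Subgroup.center (Matrix.symplecticGroup (Fin m) F))) :=
  ⟨by rw [← MonoidHom.ker_eq_bot_iff, QuotientGroup.ker_mk', center_sp_eq_bot h2 hm],
    QuotientGroup.mk'_surjective _⟩

/-- A proper subgroup of the symplectic group over two elements has index at least that of `O⁻`. -/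
theorem le_index_sp_two [CharP F 2] (hm : 4 ≤ m) (H : Subgroup (Cfsg.PSp m F)) (hH : H ≠ ⊤) :
    2 ^ (m - 1) * (2 ^ m - 1) ≤ H.index := by
  obtain ⟨w, rfl⟩ : ∃ w, m = w + 2 := ⟨m - 2, by omega⟩
  have hQ := nondeg_qPlus (F := F) (w + 2)
  have hn : finrank F ((Fin (w + 2) ⊕ Fin (w + 2)) → F) = 2 * w + 4 := by
    rw [finrank_qPlus]; omega
  set Q := qPlus (w + 2) F
  have hzeros : MinIndexOrth.vc Q 0 = 2 ^ (2 * w + 3) + 2 ^ (w + 1) := by
    have h0 := card_zeros_qPlus (F := F) (w + 2)
    unfold MinIndexOrth.vc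
    rw [h2] at h0
    zify
    refine mul_right_cancel₀ (show (2 : ℤ) ≠ 0 by norm_num) (h0.trans ?_)
    ring
  have h1 : MinIndexOrth.vc Q 1 = 2 ^ (w + 2 - 1) * (2 ^ (w + 2) - 1) := by
    have h := card_one_qPlus (F := F) (w + 1)
    rw [h2] at h
    exact h
  have hfin : Finite ((Fin (w + 2) ⊕ Fin (w + 2) → F) ≃ₗ[F] (Fin (w + 2) ⊕ Fin (w + 2) → F)) :=
    Finite.of_injective _ DFunLike.coe_injective
  set π : siegelGroup Q →* Cfsg.PSp (w + 2) F :=
    ((QuotientGroup.mk' _).comp (formHom Q (LinearEquiv.refl F _)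
      (fun u v => sympForm_eq_polar_qPlus u v))).comp (siegelGroup Q).subtype with hπ
  have : IsSimpleGroup (Cfsg.PSp (w + 2) F) :=
    ClassicalLinear.isSimpleGroup_psp (by omega) (Or.inl (by omega))
  by_contra hlt
  rw [not_le, ← h1] at hlt
  have hfix : ∀ (z : Cfsg.PSp (w + 2) F ⧸ H) (g : siegelGroup Q), π g • z = z := by
    intro z g
    set S := (MulAction.stabilizer (Cfsg.PSp (w + 2) F) z).comap π
    have htop : S = ⊤ := by
      by_contra hS
      have : Nontrivial (siegelGroup Q ⧸ S) := QuotientGroup.nontrivial_iff.2 hS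
      have hle := MinIndexOrth.card_points_le_plus (Ω := siegelGroup Q ⧸ S) hQ h2 hn (by omega) hzeros
      have h3 : Nat.card (siegelGroup Q ⧸ S) ≤ H.index := by
        let _ := MulAction.compHom (Cfsg.PSp (w + 2) F ⧸ H) π
        rw [show S = MulAction.stabilizer (siegelGroup Q) z from rfl,
          ← Nat.card_congr (MulAction.orbitEquivQuotientStabilizer (siegelGroup Q) z)]
        exact Nat.card_le_card_of_injective _ Subtype.val_injective
      omega
    exact (show g ∈ S by rw [htop]; trivial)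
  have hle : π.range ≤ H.normalCore := by
    rintro _ ⟨g, rfl⟩
    rw [Subgroup.normalCore_eq_ker, MonoidHom.mem_ker]
    exact Equiv.ext fun z => hfix z g
  have hbot : H.normalCore = ⊥ := (Subgroup.Normal.eq_bot_or_eq_top inferInstance).resolve_right
    fun h => hH (top_le_iff.1 (h ▸ H.normalCore_le))
  rw [hbot, le_bot_iff, MonoidHom.range_eq_bot_iff] at hle
  have hinj : Function.Injective π :=
    ((mk_bijective h2 (by omega)).1.comp formHom_injective).comp Subtype.val_injective
  obtain ⟨x, x', hp⟩ := exists_hypPair hQ (by omega)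
  obtain ⟨v, v', hv⟩ := exists_hypPair (MinIndexOrth.nondeg_q2 hQ hp) (by
    have := MinIndexOrth.finrank_perp2 hp; omega)
  have hone : MinIndexOrth.root Q x (v : _ → F) = 1 := hinj (by rw [hle, map_one]; rfl)
  exact hv.fst_ne_zero (MinIndexOrth.eq_zero_of_root hp hone)

omit h2 in
/-- The index of an orthogonal group of minus type inside the symplectic group, by orders. -/
lemma card_orth_minus_mul [CharP F 2] (h2 : Nat.card F = 2) {a b : F} (hab : Aniso a b) (k : ℕ) :
    Nat.card (orth (qMinus k F a b)) * (2 ^ k * (2 ^ (k + 1) - 1))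
      = Nat.card (Matrix.symplecticGroup (Fin (k + 1)) F) := by
  have hF : Fintype.card F = 2 := by rw [← Nat.card_eq_fintype_card, h2]
  rw [ClassicalLinear.card_sp, hF]
  zify [Nat.one_le_pow (k + 1) 2 (by norm_num),
    fun i : ℕ => Nat.one_le_pow (2 * (i + 1)) 2 (by norm_num)]
  rw [card_orth_qMinus hab, h2, Finset.prod_range_succ,
    show (k + 1) ^ 2 = (k + 1) * k + k + 1 by ring]
  push_cast
  rw [show (2 * (k + 1)) = (k + 1) + (k + 1) by ring, pow_add, pow_add, pow_add]
  ring

/-- The bound is attained. -/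
theorem exists_index_sp_two [CharP F 2] (hm : 1 ≤ m) :
    ∃ H : Subgroup (Cfsg.PSp m F), H.index = 2 ^ (m - 1) * (2 ^ m - 1) := by
  obtain ⟨k, rfl⟩ : ∃ k, m = k + 1 := ⟨m - 1, by omega⟩
  have hab : Aniso (1 : F) 1 := fun z₁ z₂ h => by
    rcases MinIndexOrth.eq_zero_or_one h2 z₁ with h1 | h1 <;>
      rcases MinIndexOrth.eq_zero_or_one h2 z₂ with h3 | h3 <;> subst h1 h3
    · exact ⟨rfl, rfl⟩
    all_goals
      exfalso
      refine one_ne_zero (show (1 : F) = 0 from ?_)
      first
        | linear_combination h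
        | linear_combination h - (CharTwo.two_eq_zero : (2 : F) = 0)
  set Q := qMinus k F (1 : F) 1 with hQd
  let ψ : ((Fin k ⊕ Fin k) ⊕ Fin 2 → F) ≃ₗ[F] (Fin (k + 1) ⊕ Fin (k + 1) → F) :=
    { toFun := fun v => Sum.elim (Fin.snoc (fun i => v (.inl (.inl i))) (v (.inr 0)))
        (Fin.snoc (fun i => v (.inl (.inr i))) (v (.inr 1)))
      invFun := fun v => Sum.elim (Sum.elim (fun i => v (.inl i.castSucc)) (fun i => v (.inr i.castSucc)))
        ![v (.inl (Fin.last k)), v (.inr (Fin.last k))]
      map_add' := fun u v => by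
        funext i
        rcases i with i | i <;> refine Fin.lastCases ?_ ?_ i <;> simp
      map_smul' := fun c v => by
        funext i
        rcases i with i | i <;> refine Fin.lastCases ?_ ?_ i <;> simp
      left_inv := fun v => by
        funext i
        rcases i with (i | i) | i
        · simp
        · simp
        · fin_cases i <;> simp
      right_inv := fun v => by
        funext i
        rcases i with i | i <;> refine Fin.lastCases ?_ ?_ i <;> simp }
  have hψ : ∀ u v, Cfsg.sympForm (k + 1) F (ψ u) (ψ v) = polar Q u v := by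
    intro u v
    rw [sympForm_sum, Fin.sum_univ_castSucc]
    simp only [polar, hQd, qMinus_apply, Cfsg.quadFormMinus, Pi.add_apply, ψ, LinearEquiv.coe_mk,
      LinearMap.coe_mk, AddHom.coe_mk, Sum.elim_inl, Sum.elim_inr, Fin.snoc_castSucc, Fin.snoc_last,
      CharTwo.sub_eq_add, Finset.sum_add_distrib, add_mul, mul_add]
    ring_nf
    simp only [CharTwo.two_eq_zero, add_zero, zero_mul, mul_comm]
    ring
  have hfin : Finite (((Fin k ⊕ Fin k) ⊕ Fin 2 → F) ≃ₗ[F] ((Fin k ⊕ Fin k) ⊕ Fin 2 → F)) :=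
    Finite.of_injective _ DFunLike.coe_injective
  refine ⟨(formHom Q ψ hψ).range.map (QuotientGroup.mk' _), ?_⟩
  rw [Subgroup.index_map_eq _ (QuotientGroup.mk'_surjective _) (by
    rw [QuotientGroup.ker_mk', center_sp_eq_bot h2 (by omega)]; exact bot_le)]
  have h := (formHom Q ψ hψ).range.card_mul_index
  rw [← card_orth_minus_mul h2 hab k, Nat.card_congr
    (MonoidHom.ofInjective formHom_injective).toEquiv.symm] at h
  rw [Nat.add_sub_cancel]
  exact Nat.eq_of_mul_eq_mul_left Nat.card_pos h

end TwoElements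

end CfsgLib.MinIndexSymp
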